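import Mathlib
import Cfsg.Agent.H9.NG.A2

/-!
# General `p ≥ 5`: the facts `act`, `spt`, `com` for section 3
-/

set_option autoImplicit false
set_option linter.unusedSectionVars false

namespace Cfsg.Agent.H9.NG

open Subgroup
open scoped commutatorElement
open Cfsg (IsComponent IsComponentOf IsQuasisimple IsElementaryAbelian piCoreOf IsSignalizerFunctor signalizerInf)
open Cfsg.Agent.H15.Prj
open Cfsg.Agent.H9.GenFam (Good)
open Cfsg.Agent.H275.NS (fxs psiOf NearS DD AllNS Nsol Sec)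
open Cfsg.Agent.H309.NS (Mem)
open Cfsg.Agent.H9.NS
open Cfsg.Agent.SignalizersComponents.Components
open Cfsg.Agent.OddOrderLocal.PiCoreOf (piCoreOf_le piCoreOf_isPi le_piCoreOf isPi_singleton_iff
  normalizer_le_normalizer_piCoreOf le_normalizer_piCoreOf)

universe u

variable {G : Type u} [Group G] [Finite G] {p q : ℕ} [hp : Fact p.Prime] {A D F Z : Subgroup G}
  {θ : G → Subgroup G} {V L K : Subgroup G} {a b : G}

/-- **irreducibility**, internal form -/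
theorem irr_cF (h : NV p A V) (hL : IsComponentOf L V) (ht : Ty p (L ⧸ center L) q) (hz : center L = ⊥) {U : Subgroup G}
    (hUF : U ≤ cF A L) (hU : IsPGroup q U) (hn : cF A L ≤ normalizer (U : Set G)) (hU1 : U ≠ ⊥) {x : G}
    (hx : x ∈ cF A L) (hxq : ∃ k, x ^ q ^ k = 1) : x ∈ U := by
  obtain ⟨Q, hQ, -⟩ := exists_KT h hL ht
  set π := QuotientGroup.mk' (center L) with hπ
  have hinj : Function.Injective π := by
    rw [← MonoidHom.ker_eq_bot_iff, QuotientGroup.ker_mk', hz]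
  have hUQ : (U.subgroupOf L).map π = Q := by
    refine hQ.irr ?_ ?_ ?_
    · rintro _ ⟨y, hy, rfl⟩
      obtain ⟨k, hk⟩ := hU ⟨y, hy⟩
      have hk0 : (y : G) ^ q ^ k = 1 := congrArg Subtype.val hk
      have hk' : y ^ q ^ k = 1 := Subtype.ext hk0
      refine hQ.mem_of_pow (k := k) (mk_mem_fxs h hL (hUF hy)) ?_
      rw [← map_pow, hk', map_one]
    · intro h0
      apply hU1
      rw [eq_bot_iff]
      intro u hu
      have h1 : π ⟨u, (hUF hu).1⟩ ∈ (U.subgroupOf L).map π := ⟨⟨u, (hUF hu).1⟩, hu, rfl⟩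
      rw [h0, mem_bot, ← map_one π] at h1
      rw [mem_bot]
      exact congrArg Subtype.val (hinj h1)
    · refine (fxs_le_map h hL).trans ?_
      rintro _ ⟨y, hy, rfl⟩
      have h1 := hn (show (y : G) ∈ cF A L from hy)
      have h2 : y ∈ normalizer ((U.subgroupOf L : Subgroup L) : Set L) := by
        rw [mem_normalizer_iff] at h1 ⊢
        exact fun h => h1 (h : G)
      exact Subgroup.le_normalizer_map π ⟨y, h2, rfl⟩
  obtain ⟨k, hk⟩ := hxq
  have h1 : π ⟨x, hx.1⟩ ∈ Q := by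
    refine hQ.mem_of_pow (k := k) (mk_mem_fxs h hL hx) ?_
    rw [← map_pow]
    have h2 : (⟨x, hx.1⟩ : L) ^ q ^ k = 1 := Subtype.ext hk
    rw [h2, map_one]
  rw [← hUQ] at h1
  obtain ⟨y, hy, h2⟩ := h1
  have h3 := hinj h2
  have h4 : x = (y : G) := by rw [h3]
  rw [h4]
  exact hy

/-- the orders of the elements of `cF A L` -/
theorem exists_t (h : NV p A V) (hL : IsComponentOf L V) (ht : Ty p (L ⧸ center L) q) (hz : center L = ⊥) :
    ∃ t : ℕ, t.Prime ∧ t ≠ q ∧ (t = 2 ∨ t = 3) ∧ ∀ y ∈ cF A L, ∃ a b, y ^ (q ^ a * t ^ b) = 1 := by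
  obtain ⟨Q, hQ, s, hs, hsq, h1⟩ := exists_KT h hL ht
  refine ⟨s, by rcases hs with rfl | rfl <;> norm_num, hsq, hs, fun y hy => ?_⟩
  set π := QuotientGroup.mk' (center L) with hπ
  have hinj : Function.Injective π := by
    rw [← MonoidHom.ker_eq_bot_iff, QuotientGroup.ker_mk', hz]
  obtain ⟨k, hk⟩ := h1 _ (mk_mem_fxs h hL (y := ⟨y, hy.1⟩) hy)
  obtain ⟨l, hl⟩ := hQ.pg ⟨_, hk⟩
  refine ⟨l, k, ?_⟩
  have h2 : (π ⟨y, hy.1⟩ ^ s ^ k) ^ q ^ l = 1 := congrArg Subtype.val hl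
  rw [← pow_mul, ← map_pow, ← map_one π] at h2
  have h3 := congrArg Subtype.val (hinj h2)
  rw [mul_comm]
  exact h3

namespace Ctg

section per

variable (c : Ctg p q A θ D F Z)

include c

/-- `act` -/
theorem act (hV : Mem p A θ V) (hL : IsComponentOf L V) {r : G} (hr : r ∈ piCoreOf {q} (V ⊓ D)) :
    ∃ y ∈ cF A L, (∃ k, y ^ q ^ k = 1) ∧ ∀ l ∈ L, r * l * r⁻¹ = y * l * y⁻¹ := by
  obtain ⟨y, hy, h1⟩ := c.inn hV hL hr
  obtain ⟨k, hk⟩ := (isPi_singleton_iff c.qp _).mp (piCoreOf_isPi {q} (cF A L)) ⟨y, hy⟩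
  exact ⟨y, piCoreOf_le _ _ hy, ⟨k, congrArg Subtype.val hk⟩, h1⟩

/-- `com` -/
theorem com (hV : Mem p A θ V) (hL : IsComponentOf L V) {q' : ℕ} (ht : Ty p (L ⧸ center L) q') {x : G}
    (hx : x ∈ cF A L) (hxq : ∃ k, x ^ q' ^ k = 1) {s : ℕ} (hs : s.Prime) (hsq : s ≠ q') {r : G}
    (hr : r ∈ piCoreOf {s} (V ⊓ D)) : r * x = x * r := by
  obtain ⟨h1, h2⟩ := c.core_hyp hV s
  exact (c.sg hV).com q' s _ hs hsq ((piCoreOf_le _ _).trans inf_le_left)
    ((isPi_singleton_iff hs _).mp (piCoreOf_isPi _ _)) h1 h2 L hL ht r hr x hx hxq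

end per

end Ctg

end Cfsg.Agent.H9.NG
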