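import Mathlib
import Cfsg.Agent.H9.NG.A2
import Cfsg.Agent.H23.NS.Conj
import Cfsg.Agent.H23.NS.GenP
import Cfsg.Agent.H22.NE.Syl

/-!
# General `p ≥ 5`: (1.7) and the generation of the layers

`Ctg.spc_cj_plane` (helper23's lemma for `Ctg`), `Ctg.lay_le_of_plane`.
-/

set_option autoImplicit false
set_option linter.unusedSectionVars false

namespace Cfsg.Agent.H9.NG

open Subgroup
open scoped commutatorElement
open Cfsg (IsComponent IsComponentOf IsQuasisimple layer IsElementaryAbelian piCoreOf signalizerInf)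
open Cfsg.Agent.H15.Prj
open Cfsg.Agent.H9.NS
open Cfsg.Agent.H309.NS (Mem MinC)
open Cfsg.Agent.H275.NS (fxs)
open Cfsg.Agent.H23.NS (exists_cj A_norm_of)
open Cfsg.Agent.SignalizersComponents.GoldschmidtGen (le_normalizer_of_conj_mem conj_mem_of_le_normalizer)

universe u

variable {G : Type u} [Group G] [Finite G] {p q : ℕ} [hp : Fact p.Prime] {A V P K D F Z : Subgroup G}
  {θ : G → Subgroup G}

/-- **conjugates of the special components of `θ(P)` are special** -/
theorem Ctg.spc_cj_plane (c : Ctg p q A θ D F Z) (hPA : P ≤ A) (hP : P.relIndex A = p)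
    (hK : IsComponentOf K (signalizerInf P θ)) {g : G} (hg : g ∈ signalizerInf P θ)
    (hn : ¬ Z ⊓ centralizer (P : Set G) ≤ centralizer (K : Set G)) :
    ¬ Z ⊓ centralizer (P : Set G) ≤ centralizer ((cj g K : Subgroup G) : Set G) := by
  have hP1 : P ≠ ⊥ := SignalizersComponents.CoprimeGen.ne_bot_of_pow_le two_ne_zero
    (SignalizersComponents.FunctorTools.hyperplane_pow_le c.near.card hPA hP)
  have hVm := H309.NS.signalizerInf_mem c.near.func hPA hP1
  have hVP := H309.NS.signalizerInf_le_centralizer c.near.func hPA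
  have hnv := c.nv hVm
  obtain ⟨x, ⟨hxV, hxA⟩, e⟩ := exists_cj hnv (fun K hK => A_norm_of hnv hPA hP hVP hK) hK hg
  rw [e]
  intro hle
  apply hn
  intro z hz
  have hxD : x ∈ D := c.dd.C_le (c.near.inf_centralizer hVm ⟨hxV, hxA⟩)
  have hxz : x * z * x⁻¹ ∈ Z ⊓ centralizer (P : Set G) := by
    refine ⟨conj_mem_of_le_normalizer c.D_nZ hxD hz.1, ?_⟩
    show x * z * x⁻¹ ∈ centralizer (P : Set G)
    rw [mem_centralizer_iff]
    intro y hy
    have h1 : y * x = x * y := mem_centralizer_iff.1 hxA y (hPA hy)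
    have h2 : y * z = z * y := mem_centralizer_iff.1 hz.2 y hy
    have h3 : x⁻¹ * y = y * x⁻¹ := by
      have h4 : x⁻¹ * (y * x) * x⁻¹ = x⁻¹ * (x * y) * x⁻¹ := by rw [h1]
      calc x⁻¹ * y = x⁻¹ * (y * x) * x⁻¹ := by group
        _ = x⁻¹ * (x * y) * x⁻¹ := h4
        _ = y * x⁻¹ := by group
    calc y * (x * z * x⁻¹) = (y * x) * z * x⁻¹ := by group
      _ = x * (y * z) * x⁻¹ := by rw [h1]; group
      _ = x * z * (y * x⁻¹) := by rw [h2]; group
      _ = x * z * x⁻¹ * y := by rw [← h3]; group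
  have h1 := hle hxz
  rw [mem_centralizer_iff] at h1 ⊢
  intro k hk
  have h2 := h1 _ (conj_mem_cj (s := x) hk)
  have h3 : x * (k * z) * x⁻¹ = x * (z * k) * x⁻¹ := by
    calc x * (k * z) * x⁻¹ = x * k * x⁻¹ * (x * z * x⁻¹) := by group
      _ = x * z * x⁻¹ * (x * k * x⁻¹) := h2
      _ = x * (z * k) * x⁻¹ := by group
  exact mul_left_cancel (mul_right_cancel h3)

/-- a prime dividing `|L / Z(L)|` but not the order of the fixed points, from helper22's `AllTw` -/
theorem rr_of_tw (h : NV p A V) (ht : H22.NE.AllTw p V) {L : Subgroup G} (hL : IsComponentOf L V) :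
    ∃ r : ℕ, r.Prime ∧ r ∣ (center L).index ∧ ¬ r ∣ Nat.card (fxs (PP A L)) := by
  obtain ⟨r, r', h1, -, -, -, -, h2, -, h3, -⟩ := ht _ (quo_simple hL) (quo_not_comm hL) (quo_sec hL) _
    ⟨MulEquiv.refl _⟩ (PP A L) (card_PP h hL) (solv_fxs_PP h hL)
  exact ⟨r, h1, h2, h3⟩

/-- **generation of the layer of a member by the centralisers of the elements of a hyperplane** -/
theorem Ctg.lay_le_of_plane (c : Ctg p q A θ D F Z) (h : MinC p A θ) (hV : Mem p A θ V) (hPA : P ≤ A)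
    (hP : P.relIndex A = p)
    (hrr : ∀ L, IsComponentOf L V → ∃ r : ℕ, r.Prime ∧ r ∣ (center L).index ∧ ¬ r ∣ Nat.card (fxs (PP A L)))
    {X : Subgroup G} (hX1 : ∀ d ∈ P, d ≠ 1 → ∀ R, IsComponentOf R V → (∀ x ∈ R, d * x = x * d) → R ≤ X)
    (hX2 : ∀ d ∈ P, d ≠ 1 → ∀ R ∈ mvd d V, dgS d p R ≤ X) : lay V ≤ X :=
  H23.NS.lay_le_of_plane (c.nv hV) hPA ((H23.NS.relIndex_eq_iff h.card hp.out.pos hPA).1 hP).ge hrr hX1 hX2

end Cfsg.Agent.H9.NG
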