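import Mathlib
import Cfsg.Agent.H9.NG.A3
import Cfsg.Agent.H9.NG.A5
import Cfsg.Agent.H275.NG.Sl
import Cfsg.Agent.H23.NG.PurCtg
import Cfsg.Agent.H23.NG.Conj

/-!
# General `p ≥ 5`: (M4) for `q ∈ {2, 3, 5}`

`Ctg.per_bot` : there are no special components; `Ctg.ud_of` : helper10's `UD` for `Z(O_q(D))`.
-/

set_option autoImplicit false
set_option linter.unusedSectionVars false

namespace Cfsg.Agent.H9.NG

open Subgroup
open Cfsg (IsComponent IsComponentOf IsQuasisimple IsElementaryAbelian piCoreOf IsSignalizerFunctor signalizerInf)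
open Cfsg.Agent.H9.NS
open Cfsg.Agent.H309.NS (Mem MinC CommGenAt)
open Cfsg.Agent.SignalizersComponents

universe u

variable {G : Type u} [Group G] [Finite G] {p q : ℕ} [hp : Fact p.Prime] {A D F Z : Subgroup G}
  {θ : G → Subgroup G} {a : G}

namespace Ctg

/-- **there are no special components** -/
theorem per_bot (c : Ctg p q A θ D F Z) (h : MinC p A θ) (hrr : ∀ V, Mem p A θ V → H22.MixG.AllRr p V)
    (hcg : ∀ V, Mem p A θ V → H23.NG.AllCG V) (hCG : CommGenAt p G) (hp3 : 3 ≤ p) (ha : a ∈ A) (ha1 : a ≠ 1) :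
    Per θ Z a = ⊥ := by
  have hqf : Fact q.Prime := ⟨c.qp⟩
  by_cases hne : ∃ a ∈ A, a ≠ 1 ∧ tau A θ Z a ≠ θ a
  · refine H275.NG.per_bot c (H275.NG.gx_of c) h
      (fun P hPA hP K hK hn g hg => H23.NG.spc_cj_plane c hPA hP hK hg hn) ?_ hne ha ha1
    intro W hW P hPA hP X hX1 hX2
    exact H23.NG.lay_le_of_plane' (c.nv hW) (hrr W hW) hPA
      ((H23.NS.relIndex_eq_iff h.card hp.out.pos hPA).1 hP).ge hX1 hX2
  · push Not at hne
    exact (H23.NG.ctg_false h c hrr hcg hCG hp3 hne).elim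

/-- **(M4) for `q`**: helper10's `UD` -/
theorem ud_of (c : Ctg p q A θ D F Z) (h : MinC p A θ) (hrr : ∀ V, Mem p A θ V → H22.MixG.AllRr p V)
    (hcg : ∀ V, Mem p A θ V → H23.NG.AllCG V) (hCG : CommGenAt p G) (hp3 : 3 ≤ p)
    (hne : MinCounterBasic.Op q D ≠ ⊥) : H10.NS.UD p A θ D q Z :=
  c.ud h.pow_two_le (fun _ hV hCV h' => H275.NG.Z_le_core_of c hV hCV h')
    (fun _ ha ha1 => c.per_bot h hrr hcg hCG hp3 ha ha1) hne

end Ctg

end Cfsg.Agent.H9.NG
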